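import Cfsg.Agent.Lib.SchurMult.EngineFast
import Cfsg.Agent.Lib.SchurMult.Held.Data

/-! Kernel checks for the multiplier of the Held group. -/

set_option autoImplicit false
set_option maxRecDepth 100000

namespace Cfsg.Agent.Lib.SchurMult.Held

theorem closed0 : Engine.Data.closed₂ 10 tableTwo 0 128 = true := by decide +kernel

theorem closed1 : Engine.Data.closed₂ 10 tableTwo 128 128 = true := by decide +kernel

theorem closed2 : Engine.Data.closed₂ 10 tableTwo 256 128 = true := by decide +kernel

theorem closed3 : Engine.Data.closed₂ 10 tableTwo 384 128 = true := by decide +kernel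

theorem closed4 : Engine.Data.closed₂ 10 tableTwo 512 128 = true := by decide +kernel

theorem closed5 : Engine.Data.closed₂ 10 tableTwo 640 128 = true := by decide +kernel

theorem closed6 : Engine.Data.closed₂ 10 tableTwo 768 128 = true := by decide +kernel

theorem closed7 : Engine.Data.closed₂ 10 tableTwo 896 128 = true := by decide +kernel

theorem tabTwo : dataTwo.tabOK tableTwo = true := by decide +kernel

theorem cover_two : ∀ k < dataTwo.p ^ dataTwo.n, ∃ q ∈ [((0, 128) : ℕ × ℕ), ((128, 128) : ℕ × ℕ), ((256, 128) : ℕ × ℕ), ((384, 128) : ℕ × ℕ), ((512, 128) : ℕ × ℕ), ((640, 128) : ℕ × ℕ), ((768, 128) : ℕ × ℕ), ((896, 128) : ℕ × ℕ)], q.1 ≤ k ∧ k < q.1 + q.2 := by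
  intro k hk
  have hk : k < 1024 := hk
  refine ⟨(k / 128 * 128, 128), ?_, by simp only; omega, by simp only; omega⟩
  have : k / 128 < 8 := by omega
  interval_cases hq : k / 128 <;> simp

theorem closedTwo : dataTwo.closedOK = true := by
  refine Engine.Data.closedOK_of_parts tabTwo [((0, 128) : ℕ × ℕ), ((128, 128) : ℕ × ℕ), ((256, 128) : ℕ × ℕ), ((384, 128) : ℕ × ℕ), ((512, 128) : ℕ × ℕ), ((640, 128) : ℕ × ℕ), ((768, 128) : ℕ × ℕ), ((896, 128) : ℕ × ℕ)] ?_ cover_two
  simp only [List.forall_mem_cons, List.not_mem_nil, IsEmpty.forall_iff, implies_true, and_true]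
  exact ⟨closed0, closed1, closed2, closed3, closed4, closed5, closed6, closed7⟩

theorem ordTwo : dataTwo.ordOK = true := by decide +kernel

theorem eqOKTwo : dataTwo.eqs.all dataTwo.eqOK = true := by decide +kernel

theorem linTwo : dataTwo.linOK dataTwo.table = true := by decide +kernel

theorem allTwo : dataTwo.allOK = true := by
  simp only [Engine.Data.allOK, Bool.and_eq_true]
  exact ⟨⟨⟨closedTwo, ordTwo⟩, eqOKTwo⟩, linTwo⟩

theorem allThree : dataThree.allOK = true := by decide +kernel

theorem allFive : dataFive.allOK = true := by decide +kernel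

theorem allSeven : dataSeven.allOK = true := by decide +kernel

end Cfsg.Agent.Lib.SchurMult.Held
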